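import Mathlib
import Cfsg.Agent.Lib.Helper58.QSim.Defs

/-!
# QSim (S5981): package [EVAR]

Arithmetic: a subgroup `K` of `GL_n(q)` containing a subgroup `M` of order divisible by
`(q^e + 1)^k * k!`, `2e = ord_r(q)`, `k = n / (2e)`, has index prime to `r` in `SL_n(q)`.
-/

set_option autoImplicit false
open scoped MatrixGroups Matrix

namespace Cfsg.Agent.Lib.Helper93.QSim

open Cfsg.Agent.Lib.Helper58.QSim

universe u

theorem ev_dvd_iff (q r m : ℕ) (hq : 1 ≤ q) : r ∣ q ^ m - 1 ↔ ((q : ℕ) : ZMod r) ^ m = 1 := by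
  rw [← ZMod.natCast_eq_zero_iff, Nat.cast_sub (Nat.one_le_pow _ _ hq), Nat.cast_pow,
    Nat.cast_one, sub_eq_zero]

theorem ev_v0 (q r e m : ℕ) [Fact r.Prime] (hq : 1 ≤ q)
    (ho : orderOf ((q : ℕ) : ZMod r) = 2 * e) (hm : ¬ 2 * e ∣ m) :
    padicValNat r (q ^ m - 1) = 0 := by
  apply padicValNat.eq_zero_of_not_dvd
  rw [ev_dvd_iff q r m hq, ← orderOf_dvd_iff_pow_eq_one, ho]
  exact hm

theorem ev_sq (x : ℕ) (hx : 1 ≤ x) : x * x - 1 = (x - 1) * (x + 1) := by
  obtain ⟨y, rfl⟩ := Nat.exists_eq_add_of_le hx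
  have h : (1 + y) * (1 + y) = 1 + y * (1 + y + 1) := by ring
  rw [h, Nat.add_sub_cancel_left, Nat.add_sub_cancel_left]

theorem ev_v1 (q r e l : ℕ) [Fact r.Prime] (hr2 : r ≠ 2) (hq : 2 ≤ q) (hrq : ¬ r ∣ q)
    (he : 1 ≤ e) (ho : orderOf ((q : ℕ) : ZMod r) = 2 * e) (hl : 1 ≤ l) :
    padicValNat r (q ^ (2 * e * l) - 1) = padicValNat r (q ^ e + 1) + padicValNat r l := by
  have hr : r.Prime := Fact.out
  have hodd : Odd r := hr.odd_of_ne_two hr2
  have h1 : 1 < q ^ (2 * e) := Nat.one_lt_pow (by omega) (by omega)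
  have h2 : r ∣ q ^ (2 * e) - 1 := by
    rw [ev_dvd_iff q r _ (by omega), ← ho]; exact pow_orderOf_eq_one _
  have h3 : ¬ r ∣ q ^ (2 * e) := fun h => hrq (hr.dvd_of_dvd_pow h)
  have h4 := padicValNat.pow_sub_pow hodd h1 h2 h3 (n := l) (by omega)
  rw [one_pow, ← pow_mul] at h4
  rw [h4]
  congr 1
  have hx : 1 < q ^ e := Nat.one_lt_pow (by omega) (by omega)
  have h5 : q ^ (2 * e) - 1 = (q ^ e - 1) * (q ^ e + 1) := by
    rw [two_mul, pow_add]
    exact ev_sq _ hx.le
  rw [h5, padicValNat.mul (by omega) (by omega), ev_v0 q r e e (by omega) ho, zero_add]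
  intro hd
  have := Nat.le_of_dvd (by omega) hd
  omega

theorem ev_sum (q r e : ℕ) [Fact r.Prime] (hr2 : r ≠ 2) (hq : 2 ≤ q) (hrq : ¬ r ∣ q)
    (he : 1 ≤ e) (ho : orderOf ((q : ℕ) : ZMod r) = 2 * e) (n : ℕ) :
    ∑ m ∈ Finset.range n, padicValNat r (q ^ (m + 1) - 1) =
      (n / (2 * e)) * padicValNat r (q ^ e + 1) + padicValNat r (n / (2 * e)).factorial := by
  induction n with
  | zero => simp
  | succ n ih =>
    rw [Finset.sum_range_succ, ih, Nat.succ_div]
    by_cases hd : 2 * e ∣ n + 1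
    · rw [if_pos hd]
      obtain ⟨l, hl⟩ := hd
      have hl1 : 1 ≤ l := by
        rcases Nat.eq_zero_or_pos l with h | h
        · rw [h] at hl; omega
        · exact h
      have hk : n / (2 * e) + 1 = l := by
        have h1 : (n + 1) / (2 * e) = l := by
          rw [hl]; exact Nat.mul_div_cancel_left _ (by omega)
        have h2 : (n + 1) / (2 * e) = n / (2 * e) + if 2 * e ∣ n + 1 then 1 else 0 := Nat.succ_div
        rw [if_pos ⟨l, hl⟩] at h2
        omega
      rw [hl, ev_v1 q r e l hr2 hq hrq he ho hl1, hk]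
      have hk' : n / (2 * e) = l - 1 := by omega
      rw [hk']
      obtain ⟨l', rfl⟩ : ∃ l', l = l' + 1 := ⟨l - 1, by omega⟩
      rw [Nat.add_sub_cancel, Nat.factorial_succ,
        padicValNat.mul (by omega) (Nat.factorial_ne_zero _)]
      ring
    · rw [if_neg hd, ev_v0 q r e (n + 1) (by omega) ho hd]
      simp

theorem ev_prod {ι : Type*} (r : ℕ) [Fact r.Prime] (s : Finset ι) (f : ι → ℕ)
    (hf : ∀ i ∈ s, f i ≠ 0) :
    padicValNat r (∏ i ∈ s, f i) = ∑ i ∈ s, padicValNat r (f i) := by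
  classical
  induction s using Finset.induction_on with
  | empty => simp
  | insert a s ha ih =>
    rw [Finset.prod_insert ha, Finset.sum_insert ha,
      padicValNat.mul (hf a (Finset.mem_insert_self a s))
        (Finset.prod_ne_zero_iff.2 fun i hi => hf i (Finset.mem_insert_of_mem hi)),
      ih fun i hi => hf i (Finset.mem_insert_of_mem hi)]

theorem ev_GL (F : Type u) [Field F] [Fintype F] (n r e : ℕ) [Fact r.Prime] (hr2 : r ≠ 2)
    (hrq : ¬ r ∣ Fintype.card F) (he : 1 ≤ e)
    (ho : orderOf ((Fintype.card F : ℕ) : ZMod r) = 2 * e) :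
    padicValNat r (Nat.card (GL (Fin n) F)) =
      (n / (2 * e)) * padicValNat r ((Fintype.card F) ^ e + 1) +
        padicValNat r (n / (2 * e)).factorial := by
  have hr : r.Prime := Fact.out
  have hq : 2 ≤ Fintype.card F := Fintype.one_lt_card
  rw [Matrix.card_GL_field, Fin.prod_univ_eq_prod_range (fun i => Fintype.card F ^ n - Fintype.card F ^ i) n,
    ← ev_sum (Fintype.card F) r e hr2 hq hrq he ho n]
  have hfac : ∀ i ∈ Finset.range n, Fintype.card F ^ n - Fintype.card F ^ i =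
      Fintype.card F ^ i * (Fintype.card F ^ (n - i) - 1) := by
    intro i hi
    have hi' : i < n := Finset.mem_range.1 hi
    rw [Nat.mul_sub, mul_one, ← pow_add]
    congr 2
    omega
  have hpos : ∀ i ∈ Finset.range n, 1 < Fintype.card F ^ (n - i) := by
    intro i hi
    have hi' : i < n := Finset.mem_range.1 hi
    exact Nat.one_lt_pow (by omega) (by omega)
  rw [ev_prod r _ _ (fun i hi => by
    rw [hfac i hi]
    have := hpos i hi
    exact mul_ne_zero (by positivity) (by omega))]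
  rw [← Finset.sum_range_reflect (fun m => padicValNat r (Fintype.card F ^ (m + 1) - 1)) n]
  apply Finset.sum_congr rfl
  intro i hi
  have hi' : i < n := Finset.mem_range.1 hi
  have := hpos i hi
  rw [hfac i hi, padicValNat.mul (by positivity) (by omega), padicValNat.pow,
    padicValNat.eq_zero_of_not_dvd hrq, mul_zero, zero_add]
  have e1 : n - 1 - i + 1 = n - i := by omega
  rw [e1]

/-- [EVAR] -/
theorem pkgEvAr : PkgEvAr.{u} := by
  intro F _ _ n r e M K hr hr2 hrq he ho hMK hdvd hrel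
  have : Fact r.Prime := ⟨hr⟩
  classical
  have hq : 2 ≤ Fintype.card F := Fintype.one_lt_card
  have hrq1 : ¬ r ∣ Fintype.card F - 1 := by
    intro h
    have h' : r ∣ Fintype.card F ^ 1 - 1 := by rwa [pow_one]
    rw [ev_dvd_iff _ r 1 (by omega), ← orderOf_dvd_iff_pow_eq_one, ho] at h'
    have := Nat.le_of_dvd (by omega) h'
    omega
  have hGL := ev_GL F n r e hr2 hrq he ho
  -- a Sylow `r`-subgroup of `M`
  let P : Sylow r M := default
  let P' : Subgroup (GL (Fin n) F) := P.1.map M.subtype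
  have hP'card : Nat.card P' = r ^ (Nat.card M).factorization r := by
    rw [Subgroup.card_subtype]; exact P.card_eq_multiplicity
  have hP'M : P' ≤ M := Subgroup.map_subtype_le _
  have hP'SL : P' ≤ Cfsg.Geo.specialLinear (Fin n) F := by
    intro g hg
    obtain ⟨g₀, hg₀, rfl⟩ := Subgroup.mem_map.1 hg
    obtain ⟨a, ha⟩ := P.isPGroup' ⟨g₀, hg₀⟩
    have hga : (M.subtype g₀) ^ (r ^ a) = 1 := by
      have h := congrArg (fun z : P.1 => M.subtype z.1) ha
      simpa using h
    show M.subtype g₀ ∈ (Matrix.GeneralLinearGroup.det : GL (Fin n) F →* Fˣ).ker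
    rw [MonoidHom.mem_ker]
    have h1 : (Matrix.GeneralLinearGroup.det (M.subtype g₀) : Fˣ) ^ (r ^ a) = 1 := by
      rw [← map_pow, hga, map_one]
    have h2 : (Matrix.GeneralLinearGroup.det (M.subtype g₀) : Fˣ) ^ (Fintype.card F - 1) = 1 := by
      have := pow_card_eq_one (G := Fˣ) (x := Matrix.GeneralLinearGroup.det (M.subtype g₀))
      rwa [Fintype.card_units] at this
    have h3 : orderOf (Matrix.GeneralLinearGroup.det (M.subtype g₀) : Fˣ) ∣
        Nat.gcd (r ^ a) (Fintype.card F - 1) :=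
      Nat.dvd_gcd (orderOf_dvd_of_pow_eq_one h1) (orderOf_dvd_of_pow_eq_one h2)
    have h4 : Nat.Coprime (r ^ a) (Fintype.card F - 1) :=
      Nat.Coprime.pow_left _ ((Nat.Prime.coprime_iff_not_dvd hr).2 hrq1)
    rw [Nat.Coprime.gcd_eq_one h4] at h3
    exact orderOf_eq_one_iff.1 (Nat.dvd_one.1 h3)
  have hk : K.relIndex (Cfsg.Geo.specialLinear (Fin n) F) ∣
      P'.relIndex (Cfsg.Geo.specialLinear (Fin n) F) :=
    Subgroup.relIndex_dvd_of_le_left _ (hP'M.trans hMK)
  have hmul : Nat.card P' * P'.relIndex (Cfsg.Geo.specialLinear (Fin n) F) =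
      Nat.card (Cfsg.Geo.specialLinear (Fin n) F) := by
    have := Subgroup.relIndex_mul_relIndex ⊥ P' (Cfsg.Geo.specialLinear (Fin n) F) bot_le hP'SL
    rwa [Subgroup.relIndex_bot_left, Subgroup.relIndex_bot_left] at this
  have h5 : r ^ ((Nat.card M).factorization r + 1) ∣ Nat.card (GL (Fin n) F) := by
    have : r ^ ((Nat.card M).factorization r + 1) ∣
        Nat.card (Cfsg.Geo.specialLinear (Fin n) F) := by
      rw [← hmul, hP'card, pow_succ]; exact mul_dvd_mul_left _ (hrel.trans hk)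
    exact this.trans (Subgroup.card_subgroup_dvd_card _)
  have hM0 : Nat.card M ≠ 0 := Nat.card_pos.ne'
  have hR0 : (Fintype.card F ^ e + 1) ^ (n / (2 * e)) * (n / (2 * e)).factorial ≠ 0 :=
    mul_ne_zero (by positivity) (Nat.factorial_ne_zero _)
  have h6 : (Nat.card (GL (Fin n) F)).factorization r ≤ (Nat.card M).factorization r := by
    have h7 := (Nat.factorization_le_iff_dvd hR0 hM0).2 hdvd r
    rw [Nat.factorization_def _ hr, Nat.factorization_def _ hr,
      padicValNat.mul (by positivity) (Nat.factorial_ne_zero _), padicValNat.pow] at h7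
    rw [Nat.factorization_def _ hr, Nat.factorization_def _ hr, hGL]
    exact h7
  have h8 := Nat.pow_succ_factorization_not_dvd (n := Nat.card (GL (Fin n) F)) Nat.card_pos.ne' hr
  exact h8 ((pow_dvd_pow r (by omega)).trans h5)

end Cfsg.Agent.Lib.Helper93.QSim
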